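import Cfsg.Agent.H5.HeG.C1.D1

set_option autoImplicit false
set_option maxRecDepth 100000
set_option Elab.async false

namespace Cfsg.H6.HeG.C1

theorem b0 : allR (blk get gs (gwB gwh 340) gd 2019659457699537290555618693398629794151470396908634368) 4 829 = true := by decide +kernel

theorem b1 : allR (blk get gs (gwB gwh 340) gd 2019659457699537290555618693398629794151470396908634368) 833 809 = true := by decide +kernel

theorem b2 : allR (blk get gs (gwB gwh 340) gd 2019659457699537290555618693398629794151470396908634368) 1642 740 = true := by decide +kernel

theorem b3 : allR (blk get gs (gwB gwh 340) gd 2019659457699537290555618693398629794151470396908634368) 2382 688 = true := by decide +kernel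

theorem b4 : allR (blk get gs (gwB gwh 340) gd 2019659457699537290555618693398629794151470396908634368) 3070 644 = true := by decide +kernel

theorem b5 : allR (blk get gs (gwB gwh 340) gd 2019659457699537290555618693398629794151470396908634368) 3714 191 = true := by decide +kernel

theorem c0 : allR (clo get gc 29155 250176 456) 0 2343 = true := by decide +kernel

theorem c1 : allR (clo get gc 29155 250176 456) 2343 1305 = true := by decide +kernel

end Cfsg.H6.HeG.C1
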