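import Cfsg.Agent.H6.Cert
import Cfsg.Agent.H5.HeG.Pres
import Cfsg.Agent.H5.HeG.C1.B0

set_option autoImplicit false
set_option maxRecDepth 100000
set_option Elab.async false

namespace Cfsg.H6.HeG.C1

def sg : List (List ℕ) := [[], [1], [2], [3], [4], [5], [6], [7], [8], [1], [1], [2], [2], [3], [3], [4], [4], [5], [5], [7], [7], [8], [8]]

def BL : List ℕ := [0x109, 0x20b, 0x30d, 0x40f, 0x511, 0x713, 0x815, 0x6010601, 0x6040604, 0x6030603, 0x2040204, 0x20602060206, 0x3040602010206040302010201, 0x60203010206030203010201, 0x80602010803020602010201, 0x5030503, 0x7010701, 0x70607060706, 0x7020702, 0x1030103, 0x10501050105, 0x5040205010401, 0x8010508020501, 0x7050705, 0x3010301, 0x3060306, 0x30703070307, 0x4020402, 0x60206020602, 0x8020802, 0x6050604050108060506050201, 0x3050305, 0x70304020307040304020302, 0x4060406, 0x20302040304070302040307, 0x202, 0x404, 0x1040105020405, 0x10201030203060201030206, 0x606, 0x8040104080301, 0x40804080408, 0x102010401020104, 0x108010801080108, 0x1030804010408, 0x303, 0x20304030201020304030201, 0x101, 0x505, 0x707, 0x808, 0x1020506050608010504060506, 0x2080208, 0x102010201020102,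 0x1060106, 0x10201020602030801020608, 0x10203040302010203040302, 0x302030203020302, 0x60706070607, 0x403040304030403, 0x30203010203010203010201, 0x304030403040304, 0x401020104010201, 0x201020102010201, 0x2070207, 0x5070507, 0x203020302030203, 0x8070403080708070504080701, 0x1070107, 0x70307030703, 0x40304020304020304020302, 0x1050208050108, 0x80408040804, 0x801080108010801, 0x50105010501, 0x401040104010401, 0x1070804050708070803040708, 0x104010401040104, 0x10201030201030201030203, 0x20302040302040302040304, 0x0, 0x1020102030406020102060403]

def Sub : List (List ℕ) := [[1], [2], [3], [4], [5], [7], [8]]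

theorem hA : prepA 148080050112590643456 HeG.R sg 2019659457699537290555618693398629794151470396908634368 BL Sub get gd = true := by decide +kernel

theorem hw : allR (okW BL gwh) 0 340 = true := by decide +kernel

theorem hb : ∀ b, 4 ≤ b → b < 3905 → blk get gs (gwB gwh 340) gd 2019659457699537290555618693398629794151470396908634368 b = true :=
  (range_join (range_join (allR_range b0 (by norm_num : 4 + 829 = 833)) (range_join (allR_range b1 (by norm_num : 833 + 809 = 1642)) (allR_range b2 (by norm_num : 1642 + 740 = 2382)))) (range_join (allR_range b3 (by norm_num : 2382 + 688 = 3070)) (range_join (allR_range b4 (by norm_num : 3070 + 644 = 3714)) (allR_range b5 (by norm_num : 3714 + 191 = 3905)))))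

def X : List (List ℕ) := [[1], [2], [3], [4], [5], [6], [7], [8]]

theorem hC : prepC sg 2019659457699537290555618693398629794151470396908634368 X 8 29155 456 = true := by decide +kernel

theorem hc : ∀ t, 0 ≤ t → t < 8 * 456 → clo get gc 29155 250176 456 t = true :=
  (range_join (allR_range c0 (by norm_num : 0 + 2343 = 2343)) (allR_range c1 (by norm_num : 2343 + 1305 = 3648)))

theorem cover {G : Type*} [Group G] {ev : ℕ → G} (hev : Good ev 148080050112590643456) (hR : Rels ev HeG.R) :
    Cover (gen ev Sub) (gen ev X) 29155 :=
  cert_cover hev hR hA hC hw hb (by norm_num) hc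


end Cfsg.H6.HeG.C1
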